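import Mathlib
import Cfsg.Prelude.Def_SporadicCombinatorics
import Cfsg.Agent.Eq.Def_SporadicCombinatorics

/-!
A generator matrix of the ternary code of length twelve and the list of its hexads.
-/

set_option autoImplicit false

namespace CfsgLib.TernaryGolay

open Cfsg

/-- Numbering of the positions. -/
def idx : ArrayPt ≃ Fin 12 := (finProdFinEquiv : Fin 4 × Fin 3 ≃ Fin (4 * 3))

/-- Rows of the generator matrix. -/
def rowList : List (List ℕ) :=
  [[1, 0, 0, 0, 0, 1, 0, 0, 1, 1, 1, 2], [0, 1, 0, 0, 0, 1, 0, 2, 2, 2, 0, 2],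
   [0, 0, 1, 0, 0, 1, 0, 1, 0, 2, 1, 1], [0, 0, 0, 1, 0, 2, 0, 2, 1, 2, 1, 0],
   [0, 0, 0, 0, 1, 2, 0, 1, 2, 0, 1, 2], [0, 0, 0, 0, 0, 0, 1, 1, 1, 2, 2, 2]]

/-- Entries of the generator matrix. -/
def rowVal (j p : ℕ) : ℕ := (rowList.getD j []).getD p 0

/-- The generators. -/
def gen (j : Fin 6) (q : ArrayPt) : ZMod 3 := (rowVal j (idx q) : ZMod 3)

/-- Information positions. -/
def pos : Fin 6 → ArrayPt := ![(0, 0), (0, 1), (0, 2), (1, 0), (1, 1), (2, 0)]

/-- Encoding. -/
def enc (a : Fin 6 → ZMod 3) (q : ArrayPt) : ZMod 3 := ∑ j, a j * gen j q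

theorem mem_code {x : ArrayPt → ZMod 3} : x ∈ ternaryGolayCode ↔ IsTernaryGolayWord x := Iff.rfl

theorem mem_tetracode {t : Fin 4 → ZMod 3} :
    t ∈ tetracode ↔ ∃ a b : ZMod 3, ![b, a, a + b, a + 2 * b] = t := by
  have h : ∀ a b : ZMod 3, a • (![0, 1, 1, 1] : Fin 4 → ZMod 3) + b • ![1, 0, 1, 2] =
      ![b, a, a + b, a + 2 * b] := by decide
  rw [tetracode, Submodule.mem_span_pair]
  exact exists_congr fun a => exists_congr fun b => by rw [h]

theorem gen_mem (j : Fin 6) : gen j ∈ ternaryGolayCode := by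
  have h : ∀ j : Fin 6, (∀ i : Fin 4, ∑ r : ZMod 3, gen j (i, r) = -(![2, 2, 2, 0, 0, 0] j : ZMod 3)) ∧
      ∀ a b : ZMod 3, ∑ i : Fin 4, gen j (i, ![b, a, a + b, a + 2 * b] i) = (![2, 2, 2, 0, 0, 0] j : ZMod 3) := by
    decide +kernel
  refine mem_code.2 ⟨_, (h j).1, fun t ht => ?_⟩
  obtain ⟨a, b, rfl⟩ := mem_tetracode.1 ht
  exact (h j).2 a b

theorem enc_mem (a : Fin 6 → ZMod 3) : enc a ∈ ternaryGolayCode := by
  rw [show enc a = ∑ j, a j • gen j from funext fun q => by simp [enc, Finset.sum_apply]]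
  exact Submodule.sum_mem _ fun j _ => Submodule.smul_mem _ _ (gen_mem j)

theorem enc_pos (a : Fin 6 → ZMod 3) (i : Fin 6) : enc a (pos i) = a i := by
  have h : ∀ i j : Fin 6, gen j (pos i) = if j = i then 1 else 0 := by decide +kernel
  simp [enc, h]

theorem eq_zero_of_mem {x : ArrayPt → ZMod 3} (hx : x ∈ ternaryGolayCode) (h : ∀ j, x (pos j) = 0) :
    x = 0 := by
  obtain ⟨s, hc, ht⟩ := mem_code.1 hx
  have hr : ∀ r : ZMod 3, r = 0 ∨ r = 1 ∨ r = 2 := by decide
  have hsum : ∀ f : ZMod 3 → ZMod 3, ∑ r, f r = f 0 + f 1 + f 2 := fun f => Fin.sum_univ_three f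
  have h0 : ∀ r, x (0, r) = 0 := fun r => by
    rcases hr r with rfl | rfl | rfl
    exacts [h 0, h 1, h 2]
  have hs : s = 0 := by
    have := hc 0
    simp [h0] at this
    exact this
  subst hs
  have h1 : ∀ r, x (1, r) = 0 := fun r => by
    have := hc 1
    rw [hsum, show x (1, 0) = 0 from h 3, show x (1, 1) = 0 from h 4, neg_zero, zero_add, zero_add] at this
    rcases hr r with rfl | rfl | rfl
    exacts [h 3, h 4, this]
  have ht' : ∀ a b : ZMod 3, x (2, a + b) + x (3, a + 2 * b) = 0 := fun a b => by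
    have := ht _ (mem_tetracode.2 ⟨a, b, rfl⟩)
    simpa [Fin.sum_univ_four, h0, h1] using this
  have e1 : ∀ v : ZMod 3, -v + v = 0 ∧ -v + 2 * v = v := by decide
  have e2 : ∀ v : ZMod 3, 2 * v + -v = v ∧ 2 * v + 2 * -v = 0 := by decide
  have h3 : ∀ v, x (3, v) = 0 := fun v => by
    have := ht' (-v) v
    rw [(e1 v).1, (e1 v).2, show x (2, 0) = 0 from h 5, zero_add] at this
    exact this
  have h2 : ∀ v, x (2, v) = 0 := fun v => by
    have := ht' (2 * v) (-v)
    rw [(e2 v).1, (e2 v).2, h3, add_zero] at this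
    exact this
  funext ⟨i, r⟩
  fin_cases i
  exacts [h0 r, h1 r, h2 r, h3 r]

theorem eq_enc {x : ArrayPt → ZMod 3} (hx : x ∈ ternaryGolayCode) : x = enc fun j => x (pos j) := by
  rw [← sub_eq_zero]
  exact eq_zero_of_mem (Submodule.sub_mem _ hx (enc_mem _)) fun j => by simp [enc_pos]

/-- Base three digit. -/
def digit (k j : ℕ) : ℕ := k / 3 ^ j % 3

/-- The `k`-th word. -/
def word (k : Fin 729) : ArrayPt → ZMod 3 := enc fun j => (digit k j : ZMod 3)

theorem word_mem (k : Fin 729) : word k ∈ ternaryGolayCode := enc_mem _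

theorem word_injective : Function.Injective word := by
  intro k l h
  have h' : ∀ j : Fin 6, digit k j = digit l j := fun j => by
    have := congrFun h (pos j)
    rw [word, word, enc_pos, enc_pos, ZMod.natCast_eq_natCast_iff'] at this
    rwa [digit, digit, Nat.mod_mod, Nat.mod_mod] at this
  have := h' 0; have := h' 1; have := h' 2; have := h' 3; have := h' 4; have := h' 5
  simp only [digit, Fin.val_zero, Fin.val_one, Fin.val_two] at *
  have hk := k.2; have hl := l.2
  apply Fin.ext
  simp [show ((3 : Fin 6) : ℕ) = 3 from rfl, show ((4 : Fin 6) : ℕ) = 4 from rfl,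
    show ((5 : Fin 6) : ℕ) = 5 from rfl] at *
  omega

theorem exists_word {x : ArrayPt → ZMod 3} (hx : x ∈ ternaryGolayCode) : ∃ k, word k = x := by
  have hlt : ∀ j, (x (pos j)).val < 3 := fun j => ZMod.val_lt _
  refine ⟨⟨(x (pos 0)).val + 3 * (x (pos 1)).val + 9 * (x (pos 2)).val + 27 * (x (pos 3)).val +
    81 * (x (pos 4)).val + 243 * (x (pos 5)).val, by
      have := hlt 0; have := hlt 1; have := hlt 2; have := hlt 3; have := hlt 4; have := hlt 5; omega⟩, ?_⟩
  rw [word]
  refine Eq.trans (congrArg enc (funext fun j => ?_)) (eq_enc hx).symm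
  rw [← ZMod.natCast_zmod_val (x (pos j))]
  congr 1
  have := hlt 0; have := hlt 1; have := hlt 2; have := hlt 3; have := hlt 4; have := hlt 5
  fin_cases j <;> simp [digit] <;> omega

/-- The value of the `k`-th word at the `p`-th position. -/
def valAt (k p : ℕ) : ℕ :=
  (digit k 0 * rowVal 0 p + digit k 1 * rowVal 1 p + digit k 2 * rowVal 2 p + digit k 3 * rowVal 3 p +
    digit k 4 * rowVal 4 p + digit k 5 * rowVal 5 p) % 3

theorem word_apply (k : Fin 729) (q : ArrayPt) : word k q = (valAt k (idx q) : ZMod 3) := by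
  rw [valAt, ZMod.natCast_mod]
  simp [word, enc, gen, Fin.sum_univ_six]

theorem word_ne_zero_iff (k : Fin 729) (q : ArrayPt) : word k q ≠ 0 ↔ valAt k (idx q) ≠ 0 := by
  rw [word_apply, Ne, ZMod.natCast_eq_zero_iff, Nat.dvd_iff_mod_eq_zero, valAt, Nat.mod_mod]

/-- The weight of the `k`-th word. -/
def weight (k : ℕ) : ℕ := ((List.range 12).map fun p => if valAt k p = 0 then 0 else 1).sum

theorem card_support (k : Fin 729) : (ternarySupport (word k)).card = weight k := by
  rw [ternarySupport, Finset.card_filter, ← idx.symm.sum_comp, weight]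
  simp only [word_ne_zero_iff, Equiv.apply_symm_apply, Fin.sum_univ_succ, Fin.sum_univ_zero,
    List.range, List.range.loop, List.map, List.sum_cons, List.sum_nil, ne_eq, ite_not]
  rfl

theorem ncard_weight (w : ℕ) :
    {x : ArrayPt → ZMod 3 | x ∈ ternaryGolayCode ∧ (ternarySupport x).card = w}.ncard =
      (Finset.univ.filter fun k : Fin 729 => weight k = w).card := by
  rw [← Set.ncard_coe_finset, ← Set.ncard_image_of_injective _ word_injective]
  congr 1
  ext x
  simp only [Set.mem_setOf_eq, Finset.coe_filter, Finset.mem_univ, true_and, Set.mem_image]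
  constructor
  · rintro ⟨hx, hw⟩
    obtain ⟨k, rfl⟩ := exists_word hx
    exact ⟨k, (card_support k).symm.trans hw, rfl⟩
  · rintro ⟨k, hk, rfl⟩
    exact ⟨word_mem k, (card_support k).trans hk⟩

/-- Positions occurring in a bit mask. -/
def setOfMask (m : ℕ) : Finset ArrayPt := Finset.univ.filter fun q => m.testBit (idx q)

/-- The bit mask of the support of the `k`-th word. -/
def maskAt (k : ℕ) : ℕ :=
  ((List.range 12).map fun p => if valAt k p = 0 then 0 else 2 ^ p).sum

/-- The hexads as bit masks, each with the number of a word having this support. -/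
def hexList : List (ℕ × ℕ) :=
  [(63, 134), (222, 393), (237, 289), (243, 410), (347, 439), (366, 318), (373, 335), (413, 154), (427, 32), (438, 102),
   (455, 269), (504, 459), (591, 284), (630, 429), (633, 379), (667, 112), (679, 17), (700, 117), (725, 415), (746, 276),
   (791, 97), (813, 37), (826, 141), (860, 369), (867, 247), (910, 51), (945, 83), (969, 299), (978, 327), (996, 252),
   (1117, 479), (1127, 259), (1146, 354), (1175, 95), (1198, 39), (1209, 137), (1227, 301), (1268, 342), (1295, 49), (1331, 85),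
   (1340, 144), (1366, 417), (1385, 272), (1434, 114), (1445, 10), (1484, 279), (1489, 325), (1506, 249), (1566, 156), (1579, 34),
   (1589, 100), (1619, 332), (1644, 306), (1677, 47), (1714, 87), (1734, 264), (1752, 432), (1761, 245), (1817, 110), (1830, 12),
   (1861, 262), (1866, 303), (1904, 405), (1923, 5), (1940, 90), (1960, 27), (2135, 346), (2155, 305), (2172, 441), (2191, 43),
   (2229, 91), (2234, 138), (2265, 353), (2278, 255), (2334, 120), (2343, 14), (2361, 109), (2381, 307), (2418, 330), (2451, 89),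
   (2476, 45), (2506, 273), (2516, 423), (2529, 244), (2589, 146), (2606, 48), (2611, 86), (2650, 462), (2661, 263), (2710, 105),
   (2729, 29), (2755, 250), (2764, 315), (2800, 324), (2827, 35), (2868, 99), (2886, 258), (2897, 407), (2920, 270), (2949, 11),
   (2968, 135), (2978, 3), (3099, 142), (3117, 38), (3126, 96), (3150, 294), (3185, 406), (3228, 126), (3235, 4), (3269, 254),
   (3282, 411), (3304, 297), (3349, 101), (3370, 33), (3395, 248), (3416, 378), (3428, 261), (3462, 15), (3465, 28), (3504, 81),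
   (3591, 13), (3640, 108), (3657, 271), (3668, 333), (3682, 246), (3722, 30), (3729, 82), (3748, 9), (3852, 36), (3858, 84),
   (3873, 1), (4032, 243)]

/-- The hexad masks. -/
def hexMasks : List ℕ := hexList.map Prod.fst

theorem testBit_maskAt (k : Fin 729) (p : Fin 12) :
    (maskAt k).testBit p = decide (valAt k p ≠ 0) := by
  revert k p
  decide +kernel

theorem support_word (k : Fin 729) : ternarySupport (word k) = setOfMask (maskAt k) := by
  ext q
  simp only [ternarySupport, setOfMask, Finset.mem_filter, Finset.mem_univ, true_and, word_ne_zero_iff,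
    testBit_maskAt, decide_eq_true_eq]

theorem hexList_spec :
    hexList.all (fun t => decide (t.2 < 729 ∧ weight t.2 = 6 ∧ maskAt t.2 = t.1)) = true := by
  decide +kernel

theorem hexMasks_complete : ∀ k : Fin 729, weight k = 6 → maskAt k ∈ hexMasks := by
  decide +kernel

theorem hexads_eq :
    {h : Finset ArrayPt | ∃ x ∈ ternaryGolayCode, ternarySupport x = h ∧ h.card = 6} =
      setOfMask '' {m | m ∈ hexMasks} := by
  ext h
  constructor
  · rintro ⟨x, hx, rfl, hc⟩
    obtain ⟨k, rfl⟩ := exists_word hx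
    exact ⟨maskAt k, hexMasks_complete k ((card_support k).symm.trans hc), (support_word k).symm⟩
  · rintro ⟨m, hm, rfl⟩
    obtain ⟨t, ht, rfl⟩ := List.mem_map.1 (show m ∈ hexList.map Prod.fst from hm)
    have := List.all_eq_true.1 hexList_spec t ht
    rw [decide_eq_true_eq] at this
    obtain ⟨h1, h2, h3⟩ := this
    refine ⟨word ⟨t.2, h1⟩, word_mem _, ?_, ?_⟩
    · rw [support_word, h3]
    · rw [← h3, ← support_word ⟨t.2, h1⟩, card_support]
      exact h2

theorem hexMasks_lt : ∀ m ∈ hexMasks, m < 4096 := by decide +kernel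

theorem setOfMask_inj {m m' : ℕ} (hm : m < 4096) (hm' : m' < 4096) (h : setOfMask m = setOfMask m') :
    m = m' := by
  refine Nat.eq_of_testBit_eq fun i => ?_
  by_cases hi : i < 12
  · have := congrArg (fun s : Finset ArrayPt => decide (idx.symm ⟨i, hi⟩ ∈ s)) h
    simpa [setOfMask] using this
  · have hp : (4096 : ℕ) ≤ 2 ^ i :=
      le_trans (by norm_num) (Nat.pow_le_pow_right (by norm_num) (le_of_not_gt hi))
    rw [Nat.testBit_lt_two_pow (hm.trans_le hp), Nat.testBit_lt_two_pow (hm'.trans_le hp)]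

theorem exists_mask (s : Finset ArrayPt) : ∃ m < 4096, setOfMask m = s := by
  have hbij : Function.Bijective fun m : Fin 4096 => setOfMask m := by
    rw [Fintype.bijective_iff_injective_and_card]
    refine ⟨fun a b h => Fin.ext (setOfMask_inj a.2 b.2 h), ?_⟩
    rw [Fintype.card_fin, Fintype.card_finset, Fintype.card_congr idx, Fintype.card_fin]
    norm_num
  obtain ⟨m, hm⟩ := hbij.2 s
  exact ⟨m, m.2, hm⟩

theorem setOfMask_subset_iff {m h : ℕ} (hm : m < 4096) :
    setOfMask m ⊆ setOfMask h ↔ m &&& h = m := by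
  constructor
  · intro hs
    refine Nat.eq_of_testBit_eq fun i => ?_
    rw [Nat.testBit_and]
    by_cases hi : i < 12
    · by_cases hb : m.testBit i = true
      · have hmem : idx.symm ⟨i, hi⟩ ∈ setOfMask m := by simp [setOfMask, hb]
        have := hs hmem
        simp only [setOfMask, Finset.mem_filter, Equiv.apply_symm_apply] at this
        simp [hb, this.2]
      · simp [Bool.eq_false_iff.2 hb]
    · have hp : (4096 : ℕ) ≤ 2 ^ i :=
        le_trans (by norm_num) (Nat.pow_le_pow_right (by norm_num) (le_of_not_gt hi))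
      simp [Nat.testBit_lt_two_pow (hm.trans_le hp)]
  · intro he q hq
    simp only [setOfMask, Finset.mem_filter, Finset.mem_univ, true_and] at hq ⊢
    have := congrArg (fun t => t.testBit (idx q)) he
    simpa [Nat.testBit_and, hq] using this

/-- Number of bits. -/
def bits (m : ℕ) : ℕ := ((List.range 12).map fun p => if m.testBit p then 1 else 0).sum

theorem card_setOfMask (m : ℕ) : (setOfMask m).card = bits m := by
  rw [setOfMask, Finset.card_filter, ← idx.symm.sum_comp, bits]
  simp only [Equiv.apply_symm_apply, Fin.sum_univ_succ, Fin.sum_univ_zero,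
    List.range, List.range.loop, List.map, List.sum_cons, List.sum_nil]
  rfl

theorem hexMasks_cover_aux : ∀ a b : Fin 64, bits (64 * a + b) = 5 →
    (hexMasks.filter fun h => (64 * a + b : ℕ) &&& h == (64 * a + b : ℕ)).length = 1 := by
  decide +kernel

theorem hexMasks_cover {m : ℕ} (hm : m < 4096) (h : bits m = 5) :
    (hexMasks.filter fun h => m &&& h == m).length = 1 := by
  have hd : 64 * (m / 64) + m % 64 = m := Nat.div_add_mod m 64
  have := hexMasks_cover_aux ⟨m / 64, by omega⟩ ⟨m % 64, Nat.mod_lt _ (by norm_num)⟩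
  simp only [hd] at this
  exact this h

end CfsgLib.TernaryGolay
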