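import Mathlib
import Cfsg.Agent.TernaryGolay.Basic

/-!
Monomial automorphisms of the ternary code of length twelve, and rigidity of its hexad system.
-/

set_option autoImplicit false

namespace CfsgLib.TernaryGolay

open Cfsg
open scoped Pointwise

/-- The hexad family. -/
abbrev hexadFamily : Set (Finset ArrayPt) :=
  {h : Finset ArrayPt | ∃ x ∈ ternaryGolayCode, ternarySupport x = h ∧ h.card = 6}

/-- A permutation and signs preserving the code. -/
abbrev IsAut (σ : Equiv.Perm ArrayPt) (c : ArrayPt → (ZMod 3)ˣ) : Prop :=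
  ∀ x ∈ ternaryGolayCode, monomialMap σ c x ∈ ternaryGolayCode

/-- The permutation parts. -/
abbrev permParts : Set (Equiv.Perm ArrayPt) := {σ | ∃ c, IsAut σ c}

theorem monomialMap_mul (σ τ : Equiv.Perm ArrayPt) (c d : ArrayPt → (ZMod 3)ˣ) (x : ArrayPt → ZMod 3) :
    monomialMap σ c (monomialMap τ d x) = monomialMap (σ * τ) (fun i => c i * d (σ.symm i)) x := by
  funext i
  simp only [monomialMap, Units.val_mul, mul_assoc]
  rfl

theorem permParts_one : (1 : Equiv.Perm ArrayPt) ∈ permParts :=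
  ⟨1, fun x hx => by
    rw [show monomialMap 1 1 x = x from funext fun i => by simp [monomialMap, Equiv.Perm.one_symm]]
    exact hx⟩

theorem permParts_mul {σ τ : Equiv.Perm ArrayPt} (hσ : σ ∈ permParts) (hτ : τ ∈ permParts) :
    σ * τ ∈ permParts := by
  obtain ⟨c, hc⟩ := hσ
  obtain ⟨d, hd⟩ := hτ
  exact ⟨_, fun x hx => monomialMap_mul σ τ c d x ▸ hc _ (hd x hx)⟩

theorem monomialMap_injective (σ : Equiv.Perm ArrayPt) (c : ArrayPt → (ZMod 3)ˣ) :
    Function.Injective (monomialMap σ c) := by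
  intro x y h
  funext i
  have := congrFun h (σ i)
  simpa [monomialMap] using this

theorem support_monomialMap (σ : Equiv.Perm ArrayPt) (c : ArrayPt → (ZMod 3)ˣ) (x : ArrayPt → ZMod 3) :
    ternarySupport (monomialMap σ c x) = (ternarySupport x).image σ := by
  ext q
  simp [ternarySupport, monomialMap, ← Equiv.eq_symm_apply]

theorem permParts_subset : permParts ⊆ (setSystemAut hexadFamily : Set (Equiv.Perm ArrayPt)) := by
  rintro σ ⟨c, hc⟩
  rw [SetLike.mem_coe, MulAction.mem_stabilizer_iff]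
  refine Set.eq_of_subset_of_ncard_le ?_ ?_ (Set.toFinite _)
  · rintro _ ⟨h, ⟨x, hx, rfl, h6⟩, rfl⟩
    have e : σ • ternarySupport x = ternarySupport (monomialMap σ c x) := by
      rw [support_monomialMap]; rfl
    refine ⟨_, hc x hx, e.symm, ?_⟩
    show (σ • ternarySupport x).card = 6
    rw [Finset.card_smul_finset, h6]
  · exact (Set.ncard_smul_set σ _).ge

/-- The bit mask of a set of positions. -/
def maskOf (s : Finset ArrayPt) : ℕ := ∑ q ∈ s, 2 ^ (idx q : ℕ)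

theorem sum_setOfMask (m : ℕ) (f : Fin 12 → ℕ) :
    ∑ q ∈ setOfMask m, f (idx q) = ∑ p : Fin 12, if m.testBit p then f p else 0 := by
  rw [setOfMask, Finset.sum_filter, ← idx.symm.sum_comp]
  simp only [Equiv.apply_symm_apply]

/-- Recomputed mask. -/
def maskBits (m : ℕ) : ℕ := ((List.range 12).map fun p => if m.testBit p then 2 ^ p else 0).sum

theorem maskBits_eq_aux : ∀ a b : Fin 64, maskBits (64 * a + b) = 64 * a + b := by
  decide +kernel

theorem maskOf_setOfMask {m : ℕ} (hm : m < 4096) : maskOf (setOfMask m) = m := by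
  have hd : 64 * (m / 64) + m % 64 = m := Nat.div_add_mod m 64
  have h := maskBits_eq_aux ⟨m / 64, by omega⟩ ⟨m % 64, Nat.mod_lt _ (by norm_num)⟩
  simp only [hd] at h
  rw [maskOf, sum_setOfMask m fun p => 2 ^ (p : ℕ)]
  refine Eq.trans ?_ h
  simp only [maskBits, Fin.sum_univ_succ, Fin.sum_univ_zero, List.range, List.range.loop, List.map,
    List.sum_cons, List.sum_nil]
  rfl

/-- Image of a mask under a list of images. -/
def imgMask (l : List ℕ) (h : ℕ) : ℕ :=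
  ((List.range 12).map fun p => if h.testBit p then 2 ^ l.getD p 0 else 0).sum

/-- The images of all twelve positions. -/
def images (σ : Equiv.Perm ArrayPt) : List ℕ :=
  List.ofFn fun p : Fin 12 => (idx (σ (idx.symm p)) : ℕ)

theorem imgMask_mem {σ : Equiv.Perm ArrayPt} (hσ : σ ∈ setSystemAut hexadFamily) {h : ℕ}
    (hh : h ∈ hexMasks) : imgMask (images σ) h ∈ hexMasks := by
  have hmem : σ • setOfMask h ∈ hexadFamily := by
    rw [← MulAction.mem_stabilizer_iff.1 hσ]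
    refine Set.smul_mem_smul_set ?_
    rw [hexadFamily, hexads_eq]
    exact ⟨h, hh, rfl⟩
  rw [hexadFamily, hexads_eq] at hmem
  obtain ⟨m, hm, hms⟩ := hmem
  convert (show m ∈ hexMasks from hm) using 1
  rw [← maskOf_setOfMask (hexMasks_lt m hm), hms, maskOf,
    show σ • setOfMask h = (setOfMask h).image σ from rfl, Finset.sum_image σ.injective.injOn]
  refine Eq.trans ?_ ((congrArg _ (funext fun q => by rw [Equiv.symm_apply_apply])).trans
    (sum_setOfMask h fun p => 2 ^ (idx (σ (idx.symm p)) : ℕ))).symm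
  simp only [imgMask, images, Fin.sum_univ_succ, Fin.sum_univ_zero, List.range, List.range.loop, List.map,
    List.sum_cons, List.sum_nil]
  rfl

theorem six_fixed : ((hexMasks.filter fun h => 31 &&& h == 31) = [63]) := by decide +kernel

theorem rigid_aux : ∀ l ∈ [6, 7, 8, 9, 10, 11].permutations',
    (∀ h ∈ hexMasks, imgMask ([0, 1, 2, 3, 4, 5] ++ l) h ∈ hexMasks) → l = [6, 7, 8, 9, 10, 11] := by
  decide +kernel

theorem eq_one_of_fixed {σ : Equiv.Perm ArrayPt} (hσ : σ ∈ setSystemAut hexadFamily)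
    (hfix : ∀ p : Fin 12, (p : ℕ) < 5 → σ (idx.symm p) = idx.symm p) : σ = 1 := by
  set v : Fin 12 → ℕ := fun p => (idx (σ (idx.symm p)) : ℕ) with hv
  have hvi : Function.Injective v := fun a b h => by
    simpa using σ.injective (idx.injective (Fin.ext h))
  have hlow : ∀ p : Fin 12, (p : ℕ) < 5 → v p = p := fun p hp => by
    simp [hv, hfix p hp]
  have hlt : ∀ p, v p < 12 := fun p => (idx _).2
  -- the sixth point
  have h5 : v 5 = 5 := by
    have h63 : 63 ∈ hexMasks := by decide +kernel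
    have hm := imgMask_mem hσ h63
    have e : imgMask (images σ) 63 = 31 + 2 ^ v 5 := by
      have e0 := hlow 0 (by decide); have e1 := hlow 1 (by decide); have e2 := hlow 2 (by decide)
      have e3 := hlow 3 (by decide); have e4 := hlow 4 (by decide)
      simp only [hv] at e0 e1 e2 e3 e4 ⊢
      simp [imgMask, images, List.range, List.range.loop, List.getD, Nat.testBit, Nat.shiftRight_eq_div_pow,
        e0, e1, e2, e3, e4]
      omega
    rw [e] at hm
    have hne : ∀ p : Fin 12, (p : ℕ) < 5 → v 5 ≠ p := fun p hp he =>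
      absurd (hvi (he.trans (hlow p hp).symm)) (by intro h; subst h; exact absurd hp (by decide))
    have hsmall : ∀ k : Fin 12, 5 ≤ (k : ℕ) → 31 + 2 ^ (k : ℕ) ∈ hexMasks → (k : ℕ) = 5 := by decide +kernel
    refine hsmall ⟨v 5, hlt 5⟩ ?_ hm
    show 5 ≤ v 5
    by_contra hc
    exact hne ⟨v 5, hlt 5⟩ (Nat.lt_of_not_le hc) rfl
  set l := [v 6, v 7, v 8, v 9, v 10, v 11] with hl
  have himg : images σ = [0, 1, 2, 3, 4, 5] ++ l := by
    rw [images]
    show List.ofFn v = _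
    simp [List.ofFn_succ, hl, hlow 0 (by decide), hlow 1 (by decide), hlow 2 (by decide),
      hlow 3 (by decide), hlow 4 (by decide), h5]
  have hperm : l ∈ [6, 7, 8, 9, 10, 11].permutations' := by
    rw [List.mem_permutations']
    have hnd : l.Nodup := by
      have : l = [(6 : Fin 12), 7, 8, 9, 10, 11].map v := rfl
      rw [this]
      exact List.Nodup.map hvi (by decide)
    refine (List.subperm_of_subset hnd fun x hx => ?_).perm_of_length_le (by simp [hl])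
    obtain ⟨p, hp, rfl⟩ : ∃ p : Fin 12, 6 ≤ (p : ℕ) ∧ v p = x := by
      simp only [hl, List.mem_cons, List.not_mem_nil, or_false] at hx
      rcases hx with rfl | rfl | rfl | rfl | rfl | rfl
      exacts [⟨6, by decide, rfl⟩, ⟨7, by decide, rfl⟩, ⟨8, by decide, rfl⟩, ⟨9, by decide, rfl⟩,
        ⟨10, by decide, rfl⟩, ⟨11, by decide, rfl⟩]
    have h6 : 6 ≤ v p := by
      by_contra hc
      have : v ⟨v p, hlt p⟩ = v p := by
        rcases Nat.lt_or_ge (v p) 5 with h | h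
        · exact hlow _ h
        · have h' : v p = 5 := by omega
          rw [show (⟨v p, hlt p⟩ : Fin 12) = 5 from Fin.ext h', h5, h']
      have := congrArg Fin.val (hvi this)
      simp at this
      omega
    have := hlt p
    simp only [List.mem_cons, List.not_mem_nil, or_false]
    omega
  have hl' := rigid_aux l hperm fun h hh => himg ▸ imgMask_mem hσ hh
  rw [hl'] at himg
  refine Equiv.ext fun q => ?_
  obtain ⟨p, rfl⟩ := idx.symm.surjective q
  have := congrArg (fun L : List ℕ => L.getD p 12) himg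
  have hL : ∀ p : Fin 12, ([0, 1, 2, 3, 4, 5] ++ [6, 7, 8, 9, 10, 11] : List ℕ).getD p 12 = p := by decide
  simp only [hL, images, List.getD_eq_getElem?_getD, List.getElem?_ofFn, p.2, dite_true,
    Option.getD_some] at this
  exact idx.injective (by simpa [Fin.ext_iff] using this)

/-- Five base points. -/
def basePt (i : Fin 5) : ArrayPt := idx.symm ⟨i, by omega⟩

theorem card_setSystemAut_le : Nat.card ↥(setSystemAut hexadFamily) ≤ 95040 := by
  let f : ↥(setSystemAut hexadFamily) → (Fin 5 ↪ ArrayPt) := fun σ =>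
    ⟨fun i => σ.1 (basePt i), fun a b h => by
      simpa [basePt, Fin.ext_iff] using σ.1.injective h⟩
  have hf : Function.Injective f := by
    intro σ τ h
    apply inv_mul_eq_one.1
    apply Subtype.ext
    refine eq_one_of_fixed (σ⁻¹ * τ).2 fun p hp => ?_
    have hb : σ.1 (basePt ⟨p, hp⟩) = τ.1 (basePt ⟨p, hp⟩) := DFunLike.congr_fun h (⟨p, hp⟩ : Fin 5)
    have hp' : basePt ⟨p, hp⟩ = idx.symm p := congrArg idx.symm (Fin.ext rfl)
    rw [hp'] at hb
    show σ.1⁻¹ (τ.1 (idx.symm p)) = _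
    rw [← hb]
    exact σ.1.symm_apply_apply _
  refine le_trans (Nat.card_le_card_of_injective f hf) ?_
  rw [Nat.card_eq_fintype_card, Fintype.card_embedding_eq, Fintype.card_fin, Fintype.card_congr idx,
    Fintype.card_fin]
  rfl

/-- Witness automorphisms: inverse image lists and sign masks. -/
def witnesses : List (List ℕ × ℕ) :=
  [([0, 1, 2, 3, 4, 5, 6, 7, 8, 9, 10, 11], 0),
   ([1, 0, 2, 3, 4, 5, 11, 9, 10, 7, 8, 6], 0),
   ([1, 2, 0, 3, 4, 5, 7, 8, 6, 11, 9, 10], 0),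
   ([1, 2, 3, 0, 4, 5, 8, 7, 9, 10, 6, 11], 1331),
   ([1, 2, 3, 4, 0, 5, 6, 10, 11, 7, 8, 9], 1940),
   ([1, 2, 3, 4, 5, 0, 7, 9, 8, 6, 11, 10], 667),
   ([1, 2, 3, 4, 7, 6, 0, 8, 10, 5, 9, 11], 1581),
   ([1, 2, 3, 4, 9, 10, 11, 0, 7, 8, 6, 5], 993),
   ([1, 2, 3, 4, 8, 11, 9, 6, 0, 10, 5, 7], 1224),
   ([1, 2, 3, 4, 6, 7, 5, 11, 9, 0, 10, 8], 349),
   ([1, 2, 3, 4, 11, 8, 10, 7, 5, 9, 0, 6], 1271),
   ([1, 2, 3, 4, 10, 9, 8, 5, 6, 11, 7, 0], 430),
   ([0, 1, 2, 3, 4, 5, 6, 7, 8, 9, 10, 11], 0),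
   ([0, 2, 1, 3, 4, 5, 9, 10, 11, 6, 7, 8], 0),
   ([0, 2, 3, 1, 4, 5, 10, 9, 7, 8, 11, 6], 1331),
   ([0, 2, 3, 4, 1, 5, 11, 8, 6, 9, 10, 7], 1940),
   ([0, 2, 3, 4, 5, 1, 9, 7, 10, 11, 6, 8], 667),
   ([0, 2, 3, 4, 9, 11, 1, 10, 8, 5, 7, 6], 1581),
   ([0, 2, 3, 4, 7, 8, 6, 1, 9, 10, 11, 5], 993),
   ([0, 2, 3, 4, 10, 6, 7, 11, 1, 8, 5, 9], 1224),
   ([0, 2, 3, 4, 11, 9, 5, 6, 7, 1, 8, 10], 349),
   ([0, 2, 3, 4, 6, 10, 8, 9, 5, 7, 1, 11], 1271),
   ([0, 2, 3, 4, 8, 7, 10, 5, 11, 6, 9, 1], 430),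
   ([0, 1, 2, 3, 4, 5, 6, 7, 8, 9, 10, 11], 0),
   ([0, 1, 3, 2, 4, 5, 7, 6, 10, 11, 8, 9], 1331),
   ([0, 1, 3, 4, 2, 5, 8, 11, 9, 6, 7, 10], 1940),
   ([0, 1, 3, 4, 5, 2, 6, 10, 7, 8, 9, 11], 667),
   ([0, 1, 3, 4, 6, 8, 2, 7, 11, 5, 10, 9], 1581),
   ([0, 1, 3, 4, 10, 11, 9, 2, 6, 7, 8, 5], 993),
   ([0, 1, 3, 4, 7, 9, 10, 8, 2, 11, 5, 6], 1224),
   ([0, 1, 3, 4, 8, 6, 5, 9, 10, 2, 11, 7], 349),
   ([0, 1, 3, 4, 9, 7, 11, 6, 5, 10, 2, 8], 1271),
   ([0, 1, 3, 4, 11, 10, 7, 5, 8, 9, 6, 2], 430),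
   ([0, 1, 2, 3, 4, 5, 6, 7, 8, 9, 10, 11], 0),
   ([0, 1, 2, 4, 3, 5, 10, 9, 11, 7, 6, 8], 0),
   ([0, 1, 2, 4, 5, 3, 7, 8, 6, 10, 11, 9], 0),
   ([0, 1, 2, 4, 7, 10, 3, 6, 9, 5, 8, 11], 6),
   ([0, 1, 2, 4, 8, 9, 11, 3, 7, 6, 10, 5], 5),
   ([0, 1, 2, 4, 6, 11, 8, 10, 3, 9, 5, 7], 3),
   ([0, 1, 2, 4, 10, 7, 5, 11, 8, 3, 9, 6], 6),
   ([0, 1, 2, 4, 11, 6, 9, 7, 5, 8, 3, 10], 3),
   ([0, 1, 2, 4, 9, 8, 6, 5, 10, 11, 7, 3], 5),
   ([0, 1, 2, 3, 4, 5, 6, 7, 8, 9, 10, 11], 0),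
   ([0, 1, 2, 3, 5, 4, 9, 11, 10, 6, 8, 7], 0),
   ([0, 1, 2, 3, 9, 6, 4, 10, 7, 5, 11, 8], 6),
   ([0, 1, 2, 3, 11, 7, 8, 4, 9, 10, 6, 5], 5),
   ([0, 1, 2, 3, 10, 8, 11, 6, 4, 7, 5, 9], 3),
   ([0, 1, 2, 3, 6, 9, 5, 8, 11, 4, 7, 10], 6),
   ([0, 1, 2, 3, 8, 10, 7, 9, 5, 11, 4, 6], 3),
   ([0, 1, 2, 3, 7, 11, 10, 5, 6, 8, 9, 4], 5)]

/-- Nat value of a sign. -/
def sgn (m p : ℕ) : ℕ := if m.testBit p then 2 else 1

/-- Whether a witness preserves the code and is a permutation. -/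
def checkWit (w : List ℕ × ℕ) : Bool :=
  decide (w.1.Nodup ∧ w.1.length = 12 ∧ (∀ p : Fin 12, w.1.getD p 12 < 12) ∧
    ∀ j : Fin 6, ∀ p : Fin 12, (sgn w.2 p * rowVal j (w.1.getD p 12)) % 3 =
      (∑ i : Fin 6, sgn w.2 (idx (pos i)) * rowVal j (w.1.getD (idx (pos i)) 12) * rowVal i p) % 3)

theorem witnesses_check : witnesses.all checkWit = true := by decide +kernel

theorem exists_aut {w : List ℕ × ℕ} (hw : w ∈ witnesses) :
    ∃ σ ∈ permParts, ∀ q, (idx (σ.symm q) : ℕ) = w.1.getD (idx q) 12 := by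
  have h := List.all_eq_true.1 witnesses_check w hw
  rw [checkWit, decide_eq_true_eq] at h
  obtain ⟨hnd, hlen, hlt, hcode⟩ := h
  let f : ArrayPt → ArrayPt := fun q => idx.symm ⟨w.1.getD (idx q) 12, hlt _⟩
  have hf : Function.Bijective f := Finite.injective_iff_bijective.1 fun a b hab => by
    have hab' := congrArg Fin.val (idx.symm.injective hab)
    simp only [List.getD_eq_getElem?_getD] at hab'
    have ha : (idx a : ℕ) < w.1.length := by rw [hlen]; exact (idx a).2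
    have hb : (idx b : ℕ) < w.1.length := by rw [hlen]; exact (idx b).2
    rw [List.getElem?_eq_getElem ha, List.getElem?_eq_getElem hb] at hab'
    exact idx.injective (Fin.ext ((List.Nodup.getElem_inj_iff hnd).1 hab'))
  let σ : Equiv.Perm ArrayPt := (Equiv.ofBijective f hf).symm
  have hσ : ∀ q, σ.symm q = f q := fun q => rfl
  let c : ArrayPt → (ZMod 3)ˣ := fun q => if w.2.testBit (idx q) then -1 else 1
  have hcn : ∀ q, (c q : ZMod 3) = (sgn w.2 (idx q) : ZMod 3) := fun q => by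
    simp only [c, sgn]
    split <;> decide
  have hgen : ∀ j, monomialMap σ c (gen j) ∈ ternaryGolayCode := by
    intro j
    have hval : ∀ q, monomialMap σ c (gen j) q =
        ((sgn w.2 (idx q) * rowVal j (w.1.getD (idx q) 12) : ℕ) : ZMod 3) := fun q => by
      simp [monomialMap, hσ, f, gen, hcn]
    rw [show monomialMap σ c (gen j) = enc fun i => monomialMap σ c (gen j) (pos i) from funext fun q => by
      simp only [enc, hval, gen, ← Nat.cast_mul, ← Nat.cast_sum]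
      exact (ZMod.natCast_eq_natCast_iff' _ _ _).2 (hcode j (idx q))]
    exact enc_mem _
  refine ⟨σ, ⟨c, fun x hx => ?_⟩, fun q => ?_⟩
  · rw [eq_enc hx]
    rw [show monomialMap σ c (enc fun j => x (pos j)) = ∑ j, x (pos j) • monomialMap σ c (gen j) from
      funext fun q => by
        simp only [monomialMap, enc, Finset.sum_apply, Pi.smul_apply, smul_eq_mul, Finset.mul_sum]
        exact Finset.sum_congr rfl fun j _ => mul_left_comm _ _ _]
    exact Submodule.sum_mem _ fun j _ => Submodule.smul_mem _ _ (hgen j)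
  · simp [hσ, f]

theorem witnesses_levels : ∀ i : Fin 5, ∀ t : Fin 12, (i : ℕ) ≤ t → ∃ w ∈ witnesses,
    w.1.getD t 12 = i ∧ ∀ p : Fin 12, (p : ℕ) < i → w.1.getD p 12 = p := by
  decide +kernel

theorem exists_level (i : Fin 5) (t : Fin 12) (ht : (i : ℕ) ≤ t) :
    ∃ σ ∈ permParts, σ (basePt i) = idx.symm t ∧ ∀ k : Fin 5, k < i → σ (basePt k) = basePt k := by
  obtain ⟨w, hw, h1, h2⟩ := witnesses_levels i t ht
  obtain ⟨σ, hσ, hs⟩ := exists_aut hw
  have key : ∀ (p : Fin 12) (m : Fin 5), w.1.getD p 12 = m → σ (basePt m) = idx.symm p := fun p m hm => by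
    rw [← Equiv.eq_symm_apply]
    apply idx.injective
    apply Fin.ext
    rw [hs, basePt, Equiv.apply_symm_apply, Equiv.apply_symm_apply, hm]
  exact ⟨σ, hσ, key t i h1, fun k hk => key ⟨k, by omega⟩ k (h2 ⟨k, by omega⟩ (Fin.lt_def.1 hk))⟩

end CfsgLib.TernaryGolay
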